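import Mathlib
import Cfsg.Agent.Lib.Cores.PCore

/-!
The automorphism group of a non-abelian simple group is complete and has no normal 2-subgroup.
-/

set_option autoImplicit false

namespace CfsgLib.Fischer.M22Pair

variable {S : Type*} [Group S] [IsSimpleGroup S]

theorem conjAut_injective (hna : ∃ x y : S, x * y ≠ y * x) :
    Function.Injective (MulAut.conj : S →* MulAut S) := by
  rw [← MonoidHom.ker_eq_bot_iff]
  rcases (MonoidHom.normal_ker (MulAut.conj : S →* MulAut S)).eq_bot_or_eq_top with h | h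
  · exact h
  exfalso
  obtain ⟨x, y, hxy⟩ := hna
  have h1 : MulAut.conj x y = y := by rw [MonoidHom.mem_ker.1 (h ▸ Subgroup.mem_top x)]; rfl
  rw [MulAut.conj_apply, mul_inv_eq_iff_eq_mul] at h1
  exact hxy h1

theorem mulAut_conj_conj (β : MulAut S) (s : S) : β * MulAut.conj s * β⁻¹ = MulAut.conj (β s) := by
  refine MulEquiv.ext fun x => ?_
  simp [MulAut.conj_apply]

theorem eq_one_of_commute_inn (hna : ∃ x y : S, x * y ≠ y * x) {β : MulAut S}
    (h : ∀ s, Commute β (MulAut.conj s)) : β = 1 := by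
  refine MulEquiv.ext fun s => conjAut_injective hna ?_
  rw [← mulAut_conj_conj, (h s).eq, mul_inv_cancel_right, MulAut.one_apply]

/-- A normal subgroup of the automorphism group containing no inner automorphism is trivial. -/
theorem eq_bot_or_inn_le (hna : ∃ x y : S, x * y ≠ y * x) (N : Subgroup (MulAut S)) [hN : N.Normal] :
    N = ⊥ ∨ ∀ s, MulAut.conj s ∈ N := by
  have hn : (N.comap (MulAut.conj : S →* MulAut S)).Normal := hN.comap _
  rcases hn.eq_bot_or_eq_top with h | h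
  swap
  · exact Or.inr fun s => Subgroup.mem_comap.1 (h ▸ Subgroup.mem_top s)
  refine Or.inl (eq_bot_iff.2 fun β hβ => Subgroup.mem_bot.2 (eq_one_of_commute_inn hna fun s => ?_))
  have hm : MulAut.conj (s * (β s)⁻¹) ∈ N := by
    rw [map_mul, map_inv, ← mulAut_conj_conj]
    rw [show MulAut.conj s * (β * MulAut.conj s * β⁻¹)⁻¹ =
      (MulAut.conj s * β * (MulAut.conj s)⁻¹) * β⁻¹ by group]
    exact mul_mem (hN.conj_mem β hβ _) (inv_mem hβ)
  have h1 : s * (β s)⁻¹ = 1 := Subgroup.mem_bot.1 (h ▸ Subgroup.mem_comap.2 hm)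
  rw [mul_inv_eq_one] at h1
  have h2 := mulAut_conj_conj β s
  rw [← h1] at h2
  exact mul_inv_eq_iff_eq_mul.1 h2

theorem conjAutAut_bijective [Finite S] (hna : ∃ x y : S, x * y ≠ y * x) :
    Function.Bijective (MulAut.conj : MulAut S →* MulAut (MulAut S)) := by
  refine ⟨(injective_iff_map_eq_one _).2 fun β hβ => eq_one_of_commute_inn hna fun s => ?_, fun ψ => ?_⟩
  · have h1 : MulAut.conj β (MulAut.conj s) = MulAut.conj s := by rw [hβ]; rfl
    rw [MulAut.conj_apply, mul_inv_eq_iff_eq_mul] at h1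
    exact h1
  let I : Subgroup (MulAut S) := (MulAut.conj : S →* MulAut S).range
  haveI hIn : I.Normal := ⟨by
    rintro _ ⟨s, rfl⟩ β
    exact ⟨β s, (mulAut_conj_conj β s).symm⟩⟩
  haveI : (I.map ψ.toMonoidHom).Normal := hIn.map _ ψ.surjective
  have hle : I ≤ I.map ψ.toMonoidHom := by
    rcases eq_bot_or_inn_le hna (I.map ψ.toMonoidHom) with h | h
    · exfalso
      have hI : I = ⊥ := (Subgroup.map_eq_bot_iff_of_injective _ ψ.injective).1 h
      obtain ⟨s, hs⟩ := exists_ne (1 : S)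
      exact hs (conjAut_injective hna ((Subgroup.mem_bot.1 (hI ▸ ⟨s, rfl⟩ : MulAut.conj s ∈ (⊥ : Subgroup (MulAut S)))).trans
        (map_one _).symm))
    · rintro _ ⟨s, rfl⟩
      exact h s
  have heq : I.map ψ.toMonoidHom = I :=
    (Subgroup.eq_of_le_of_card_ge hle (le_of_eq (Subgroup.card_map_of_injective ψ.injective))).symm
  have hex : ∀ s, ∃ s', MulAut.conj s' = ψ (MulAut.conj s) := fun s => by
    have : ψ (MulAut.conj s) ∈ I.map ψ.toMonoidHom := ⟨_, ⟨s, rfl⟩, rfl⟩
    rw [heq] at this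
    exact this
  choose α hα using hex
  let αh : S →* S := MonoidHom.mk' α fun x y => conjAut_injective hna (by
    rw [map_mul, hα, hα, hα, map_mul, map_mul])
  have hbij : Function.Bijective αh := by
    refine Finite.injective_iff_bijective.1 fun x y h => ?_
    refine conjAut_injective hna (ψ.injective ?_)
    rw [← hα, ← hα]
    exact congrArg MulAut.conj h
  let a : MulAut S := MulEquiv.ofBijective αh hbij
  refine ⟨a, MulEquiv.ext fun β => ?_⟩
  have hψ : ∀ s, ψ (MulAut.conj s) = a * MulAut.conj s * a⁻¹ := fun s => by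
    rw [mulAut_conj_conj, ← hα]
    rfl
  have h1 : (a * β * a⁻¹)⁻¹ * ψ β = 1 := by
    refine eq_one_of_commute_inn hna fun s => ?_
    obtain ⟨t, rfl⟩ := hbij.2 s
    have e1 : MulAut.conj (αh t) = ψ (MulAut.conj t) := hα t
    have e2 : ψ β * ψ (MulAut.conj t) * (ψ β)⁻¹ = ψ (MulAut.conj (β t)) := by
      rw [← mulAut_conj_conj, map_mul, map_mul, map_inv]
    rw [hψ, hψ, ← mulAut_conj_conj] at e2
    refine mul_inv_eq_iff_eq_mul.1 ?_
    rw [e1, hψ]
    calc (a * β * a⁻¹)⁻¹ * ψ β * (a * MulAut.conj t * a⁻¹) * ((a * β * a⁻¹)⁻¹ * ψ β)⁻¹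
        = (a * β * a⁻¹)⁻¹ * (ψ β * (a * MulAut.conj t * a⁻¹) * (ψ β)⁻¹) * (a * β * a⁻¹) := by group
      _ = (a * β * a⁻¹)⁻¹ * (a * (β * MulAut.conj t * β⁻¹) * a⁻¹) * (a * β * a⁻¹) := by rw [e2]
      _ = a * MulAut.conj t * a⁻¹ := by group
  rw [MulAut.conj_apply]
  exact inv_mul_eq_one.1 h1

theorem pCore_mulAut_eq_bot [Finite S] (hna : ∃ x y : S, x * y ≠ y * x) (h2 : ¬ IsPGroup 2 S) :
    Cfsg.pCore 2 (MulAut S) = ⊥ := by
  haveI : Fact (Nat.Prime 2) := ⟨Nat.prime_two⟩
  rcases eq_bot_or_inn_le hna (Cfsg.pCore 2 (MulAut S)) with h | h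
  · exact h
  exfalso
  exact h2 ((CfsgLib.Cores.isPGroup_pCore 2 (MulAut S)).of_injective
    ((MulAut.conj : S →* MulAut S).codRestrict _ h) fun x y hxy => conjAut_injective hna (congrArg Subtype.val hxy))

end CfsgLib.Fischer.M22Pair
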