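import Cfsg.Agent.Lib.Fischer.M22Pair.Kernel

/-!
Groups of type M(22): automorphisms fixing `a * b` and trivial on the centralizer modulo `E`.
-/

set_option autoImplicit false
set_option linter.unusedSectionVars false
set_option maxHeartbeats 1000000

namespace CfsgLib.Fischer.M22Pair

open CfsgLib.Fischer CfsgLib.InvChar.FischerProducts CfsgLib.InvChar.FischerHexad
open CfsgLib.InvChar.UnitaryTVTwo CfsgLib.Fischer.UnitaryPoint CfsgLib.Fischer.TypeTwentyTwo
open scoped commutatorElement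

variable {G : Type*} [Group G] [Finite G] {D : Set G} {a b : G}
variable (hD : Cfsg.IsThreeTranspositionGroup D) (hprim : Cfsg.IsPrimitiveUnderConj D)
  (ht : Cfsg.IsOfTypeM22 G D)

/-- An automorphism fixing the pair as a set and trivial on the centralizer of the product modulo `E`. -/
structure Triv (a b : G) (q : MulAut G) : Prop where
  move : (q a = a ∧ q b = b) ∨ (q a = b ∧ q b = a)
  triv : ∀ x ∈ Subgroup.centralizer ({a * b} : Set G), q x * x⁻¹ ∈ pairTwo a b
  sq : ∃ g : G, q * q = MulAut.conj g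

theorem Triv.map_pairCent {q : MulAut G} (hq : Triv a b q) {k : G} (hk : k ∈ pairCent a b) :
    q k ∈ pairCent a b := by
  obtain ⟨h1, h2⟩ := mem_pairCent.1 hk
  have e1 := h1.map q
  have e2 := h2.map q
  rcases hq.move with ⟨ha', hb'⟩ | ⟨ha', hb'⟩ <;> rw [ha'] at e1 <;> rw [hb'] at e2
  exacts [mem_pairCent.2 ⟨e1, e2⟩, mem_pairCent.2 ⟨e2, e1⟩]

include hD hprim ht

theorem Triv.map_mem {q : MulAut G} (hq : Triv a b q) {x : G} (hx : x ∈ pairTwo a b) :
    q x ∈ pairTwo a b := by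
  have h := mul_mem (hq.triv x (pairTwo_le_centralizer hD hprim ht hx)) hx
  rwa [inv_mul_cancel_right] at h

theorem center_trivial {x : G} (h : MulAut.conj x = 1) : x = 1 := by
  have hx : x ∈ Subgroup.center G := Subgroup.mem_center_iff.2 fun y => by
    have h1 : MulAut.conj x y = y := by rw [h]; rfl
    rw [MulAut.conj_apply, mul_inv_eq_iff_eq_mul] at h1
    exact h1.symm
  rwa [ht.1, Subgroup.mem_bot] at hx

/-- The square is conjugation by a member of `E`. -/
theorem Triv.exists_sq (ha : a ∈ D) (hb : b ∈ perp D a) {q : MulAut G} (hq : Triv a b q) :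
    ∃ g ∈ pairTwo a b, q * q = MulAut.conj g := by
  obtain ⟨g, hg⟩ := hq.sq
  have happ : ∀ x, q (q x) = g * x * g⁻¹ := fun x => by
    rw [← MulAut.mul_apply, hg, MulAut.conj_apply]
  have hab' : q (a * b) = a * b := by
    rw [map_mul]
    rcases hq.move with ⟨h1, h2⟩ | ⟨h1, h2⟩ <;> rw [h1, h2]
    exact hb.2.2.eq.symm
  have hgC : g ∈ Subgroup.centralizer ({a * b} : Set G) := by
    refine Subgroup.mem_centralizer_singleton_iff.2 (commute_of_conj_eq ?_).eq
    rw [← happ, hab', hab']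
  refine ⟨g, mem_pairTwo_of_trivial hD hprim ht ha hb hgC fun k hk => ?_, hg⟩
  rw [← happ]
  have h1 := hq.triv k (pairCent_le hD hprim ht hk)
  have h2 := hq.triv (q k) (pairCent_le hD hprim ht (hq.map_pairCent hk))
  have h3 := mul_mem h2 h1
  rwa [show q (q k) * (q k)⁻¹ * (q k * k⁻¹) = q (q k) * k⁻¹ by group] at h3

/-- The deviation on `E` lies in `{1, b * a}`. -/
theorem Triv.dev (ha : a ∈ D) (hb : b ∈ perp D a) {q : MulAut G} (hq : Triv a b q) {x : G}
    (hx : x ∈ pairTwo a b) : q x * x⁻¹ = 1 ∨ q x * x⁻¹ = b * a := by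
  obtain ⟨F, _, _, ⟨P⟩⟩ := exists_picture hD hprim ht ha hb
  obtain ⟨g, cg, hs⟩ := exists_swap_data hD hprim ht ha hb P
  obtain ⟨haK, hbK⟩ := mem_D_pairCent hD hprim ht ha hb
  obtain ⟨h1, h2, h3, h4, h5, h6, h7⟩ := pair_ne hD hprim ht ha hb
  have hmem := mem_twoKer_iff hD hprim ht ha hb P
  have hqK : ∀ u : P.twoKer, q ((u : pairCent a b) : G) ∈ pairTwo a b := fun u =>
    hq.map_mem hD hprim ht ((hmem _).2 u.2)
  obtain ⟨cq, hcq⟩ : ∃ cq : P.twoKer →* P.twoKer, ∀ u, (((cq u : P.twoKer) : pairCent a b) : G) = q ((u : pairCent a b) : G) :=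
    ⟨MonoidHom.mk' (fun u => ⟨⟨_, pairTwo_le_pairCent hD hprim ht (hqK u)⟩,
      (hmem ⟨_, pairTwo_le_pairCent hD hprim ht (hqK u)⟩).1 (hqK u)⟩) fun u v =>
      Subtype.ext (Subtype.ext (by simp)), fun _ => rfl⟩
  have hlamcol : ∀ u : P.twoKer, P.lam u = Multiplicative.ofAdd (col ((P.radMap u : rad P.card) : Stab F)) :=
    fun _ => rfl
  have hfour : ∀ v ∈ P.four, cq v ∈ P.four := fun v hv => by
    refine (P.mem_four_iff hbK _).2 ?_
    rw [hcq]
    rcases P.four_cases hbK hv with e | e | e | e <;> rcases hq.move with ⟨e1, e2⟩ | ⟨e1, e2⟩ <;> rw [e]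
    · simp
    · simp
    · simp [e1]
    · simp [e1]
    · simp [e2]
    · simp [e2]
    · simp [map_mul, e1, e2]
    · simp [map_mul, e1, e2, h7]
  obtain ⟨L, hL⟩ : ∃ L : Multiplicative (Fin 4 → F) →* Multiplicative (Fin 4 → F),
      ∀ u, L (P.lam u) = P.lam (cq u) :=
    ⟨P.lam.liftOfSurjective P.lam_surjective ⟨P.lam.comp cq, fun u hu => MonoidHom.mem_ker.2 (hfour u hu)⟩,
      fun u => P.lam.liftOfRightInverse_comp_apply _ _ _ u⟩
  obtain ⟨La, hLa⟩ : ∃ La : (Fin 4 → F) →+ (Fin 4 → F), ∀ u : P.twoKer,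
      La (col ((P.radMap u : rad P.card) : Stab F)) = col ((P.radMap (cq u) : rad P.card) : Stab F) := by
    refine ⟨AddMonoidHom.mk' (fun x => (L (Multiplicative.ofAdd x)).toAdd)
      fun x y => by rw [ofAdd_add, map_mul, toAdd_mul], fun u => ?_⟩
    rw [AddMonoidHom.mk'_apply, ← hlamcol, hL, hlamcol, toAdd_ofAdd]
  have hpre : ∀ x : Fin 4 → F, ∃ u : P.twoKer, col ((P.radMap u : rad P.card) : Stab F) = x := fun x => by
    obtain ⟨u, hu⟩ := P.lam_surjective (Multiplicative.ofAdd x)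
    exact ⟨u, congrArg Multiplicative.toAdd hu⟩
  -- the image of a conjugate
  have hconj : ∀ (k : pairCent a b) (u : P.twoKer), ∃ z : P.twoKer,
      cq ⟨_, P.twoKer_conj_mem k u⟩ = z * ⟨_, P.twoKer_conj_mem k (cq u)⟩ * z⁻¹ := by
    intro k u
    have hz := hq.triv k (pairCent_le hD hprim ht k.2)
    refine ⟨⟨⟨_, pairTwo_le_pairCent hD hprim ht hz⟩, (hmem ⟨_, pairTwo_le_pairCent hD hprim ht hz⟩).1 hz⟩, ?_⟩
    refine Subtype.ext (Subtype.ext ?_)
    simp only [hcq, Subgroup.coe_mul, InvMemClass.coe_inv, map_mul, map_inv]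
    group
  obtain ⟨c, hc⟩ := scalar_of_equivariant P.card La fun A v => by
    obtain ⟨k, rfl⟩ := P.proj_surjective A
    obtain ⟨u, rfl⟩ := hpre v
    rw [← P.col_radMap_conj k u, hLa, hLa, ← P.col_radMap_conj k (cq u)]
    obtain ⟨z, hz⟩ := hconj k u
    rw [hz]
    exact congrArg Multiplicative.toAdd (show P.lam (z * _ * z⁻¹) = P.lam _ by
      rw [map_mul, map_mul, map_inv, mul_comm (P.lam z), mul_inv_cancel_right])
  obtain ⟨g₀, hg₀, hg₀e⟩ := hq.exists_sq hD hprim ht ha hb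
  have hlam2 : ∀ u, P.lam (cq (cq u)) = P.lam u := fun u => by
    let g₁ : P.twoKer := ⟨⟨g₀, pairTwo_le_pairCent hD hprim ht hg₀⟩, (hmem ⟨g₀, pairTwo_le_pairCent hD hprim ht hg₀⟩).1 hg₀⟩
    have e : cq (cq u) = g₁ * u * g₁⁻¹ := Subtype.ext (Subtype.ext (by
      rw [hcq, hcq, ← MulAut.mul_apply, hg₀e]
      simp [g₁, MulAut.conj_apply]))
    rw [e, map_mul, map_mul, map_inv, mul_comm (P.lam g₁), mul_inv_cancel_right]
  have hc1 : c = 1 := by
    obtain ⟨u, hu⟩ := hpre (Pi.single 0 1)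
    have e1 : col ((P.radMap (cq (cq u)) : rad P.card) : Stab F) = col ((P.radMap u : rad P.card) : Stab F) :=
      congrArg Multiplicative.toAdd (hlam2 u)
    rw [← hLa, ← hLa, hu, hc, hc, smul_smul] at e1
    have e2 : c * c = 1 := by simpa using congrFun e1 0
    have hc0 : c ≠ 0 := fun k => by simp [k] at e2
    calc c = c * (c * c) := by rw [e2, mul_one]
      _ = c ^ 3 := by ring
      _ = 1 := UnitaryPoint.pow_three P.card hc0
  let δ : P.twoKer → P.twoKer := fun u => cq u * u⁻¹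
  have hδ : ∀ u, δ u ∈ P.four := fun u => by
    show P.lam (cq u * u⁻¹) = 1
    rw [map_mul, map_inv, mul_inv_eq_one, hlamcol, hlamcol, ← hLa, hc, hc1, one_smul]
  have hδmul : ∀ u v, δ (u * v) = δ u * δ v := fun u v => by
    have e : u * δ v * u⁻¹ = δ v := Subtype.ext (P.conj_four hbK (hδ v) (u : pairCent a b))
    calc δ (u * v) = δ u * (u * δ v * u⁻¹) := by simp only [δ, map_mul]; group
      _ = δ u * δ v := by rw [e]
  let f : P.twoKer →* Multiplicative (ZMod 2) :=
    MonoidHom.mk' (fun u => Multiplicative.ofAdd (Picture.nu cg (δ u))) fun u v => by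
      rw [← ofAdd_add, ← hs.nu_mul (hδ u) (hδ v), hδmul]
  have hker : P.lam.ker ≤ f.ker := fun v hv => by
    refine MonoidHom.mem_ker.2 (congrArg Multiplicative.ofAdd (?_ : Picture.nu cg (δ v) = 0))
    refine (nu_eq_zero_iff hD hprim ht ha hb hs (hδ v)).2 ?_
    simp only [δ, Subgroup.coe_mul, InvMemClass.coe_inv, hcq]
    rcases P.four_cases hbK hv with e | e | e | e <;> rw [e] <;> rcases hq.move with ⟨e1, e2⟩ | ⟨e1, e2⟩
    · simp
    · simp
    · exact Or.inl (by rw [e1, mul_inv_cancel])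
    · exact Or.inr (by rw [e1, inv_eq hD.1 ha])
    · exact Or.inl (by rw [e2, mul_inv_cancel])
    · exact Or.inr (by rw [e2, inv_eq hD.1 hb.1, h7])
    · exact Or.inl (by rw [map_mul, e1, e2, mul_inv_cancel])
    · exact Or.inl (by rw [map_mul, e1, e2, h7, mul_inv_cancel])
  let f' : Multiplicative (Fin 4 → F) →* Multiplicative (ZMod 2) :=
    P.lam.liftOfSurjective P.lam_surjective ⟨f, hker⟩
  have hf' : ∀ u, f' (P.lam u) = f u := fun u => P.lam.liftOfRightInverse_comp_apply _ _ _ u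
  let fa : (Fin 4 → F) →+ ZMod 2 := AddMonoidHom.mk' (fun v => (f' (Multiplicative.ofAdd v)).toAdd)
    fun v w => by rw [ofAdd_add, map_mul, toAdd_mul]
  have hfa : ∀ u : P.twoKer, fa (col ((P.radMap u : rad P.card) : Stab F)) = Picture.nu cg (δ u) := fun u =>
    congrArg Multiplicative.toAdd (hf' u)
  have hzero : fa = 0 := functional_zero P.card fa fun A v => by
    obtain ⟨k, rfl⟩ := P.proj_surjective A
    obtain ⟨u, rfl⟩ := hpre v
    rw [← P.col_radMap_conj, hfa, hfa]
    obtain ⟨z, hz⟩ := hconj k u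
    let w : P.twoKer := ⟨_, P.twoKer_conj_mem k (cq u)⟩
    have ew : w * (⟨_, P.twoKer_conj_mem k u⟩ : P.twoKer)⁻¹ = δ u := by
      refine Subtype.ext (Eq.trans ?_ (P.conj_four hbK (hδ u) k))
      simp only [w, δ, Subgroup.coe_mul, InvMemClass.coe_inv]
      group
    obtain ⟨hcom, hcom0⟩ := hs.comm_four z w
    have e : δ ⟨_, P.twoKer_conj_mem k u⟩ = (z * w * z⁻¹ * w⁻¹) * δ u := by
      rw [← ew]
      show cq _ * _ = _
      rw [hz]
      simp [w, mul_assoc]
    rw [e, hs.nu_mul hcom (hδ u), hcom0, zero_add]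
  let x₂ : P.twoKer := ⟨⟨x, pairTwo_le_pairCent hD hprim ht hx⟩, (hmem ⟨x, pairTwo_le_pairCent hD hprim ht hx⟩).1 hx⟩
  have h := (nu_eq_zero_iff hD hprim ht ha hb hs (hδ x₂)).1 (by rw [← hfa, hzero]; rfl)
  simpa [δ, x₂, hcq] using h

/-- Fixing the pair, one may correct by a member of `E` to centralize `E`. -/
theorem Triv.exists_kill (ha : a ∈ D) (hb : b ∈ perp D a) {q : MulAut G} (hq : Triv a b q)
    (hqa : q a = a) (hqb : q b = b) : ∃ e ∈ pairTwo a b, ∀ x ∈ pairTwo a b, q x = e * x * e⁻¹ := by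
  obtain ⟨F, _, _, ⟨P⟩⟩ := exists_picture hD hprim ht ha hb
  obtain ⟨haK, hbK⟩ := mem_D_pairCent hD hprim ht ha hb
  obtain ⟨h1, h2, h3, h4, h5, h6, h7⟩ := pair_ne hD hprim ht ha hb
  have hmem := mem_twoKer_iff hD hprim ht ha hb P
  have hdev : ∀ u : P.twoKer, q ((u : pairCent a b) : G) * ((u : pairCent a b) : G)⁻¹ ∈ pairTwo a b := fun u =>
    hq.triv _ (pairCent_le hD hprim ht (u : pairCent a b).2)
  let δ : P.twoKer → P.twoKer := fun u =>
    ⟨⟨_, pairTwo_le_pairCent hD hprim ht (hdev u)⟩, (hmem ⟨_, pairTwo_le_pairCent hD hprim ht (hdev u)⟩).1 (hdev u)⟩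
  have hJ : ∀ u, ((δ u : pairCent a b) : G) = 1 ∨ ((δ u : pairCent a b) : G) = b * a := fun u =>
    hq.dev hD hprim ht ha hb ((hmem _).2 u.2)
  have hrad : ∀ u, P.radMap (δ u) = 1 ∨ P.radMap (δ u) = tRad P.card := fun u =>
    P.radMap_four ((P.mem_four_iff hbK _).2 ((hJ u).elim Or.inl fun h => Or.inr (Or.inr (Or.inr h))))
  have hmul : ∀ u v, δ (u * v) = δ u * δ v := fun u v => by
    refine Subtype.ext (Subtype.ext ?_)
    have e := P.conj_four hbK (v := δ v) ((P.mem_four_iff hbK _).2 ((hJ v).elim Or.inl fun h => Or.inr (Or.inr (Or.inr h))))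
      (u : pairCent a b)
    have e' : ((u : pairCent a b) : G) * ((δ v : pairCent a b) : G) * ((u : pairCent a b) : G)⁻¹ = ((δ v : pairCent a b) : G) :=
      congrArg Subtype.val e
    simp only [δ, Subgroup.coe_mul, map_mul] at e' ⊢
    rw [← e']
    group
  let f : P.twoKer →* Multiplicative (ZMod 2) :=
    MonoidHom.mk' (fun u => Multiplicative.ofAdd (bit (P.radMap (δ u)))) fun u v => by
      rw [← ofAdd_add, ← bit_mul P.card (hrad u) (hrad v), hmul, map_mul]
  have hker : P.lam.ker ≤ f.ker := fun v hv => by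
    refine MonoidHom.mem_ker.2 (congrArg Multiplicative.ofAdd (?_ : bit (P.radMap (δ v)) = 0))
    rw [bit, if_pos ((P.radMap_eq_one _).2 (Or.inl ?_))]
    show q ((v : pairCent a b) : G) * ((v : pairCent a b) : G)⁻¹ = 1
    rcases P.four_cases hbK hv with e | e | e | e <;> rw [e] <;> simp [hqa, hqb]
  let f' : Multiplicative (Fin 4 → F) →* Multiplicative (ZMod 2) :=
    P.lam.liftOfSurjective P.lam_surjective ⟨f, hker⟩
  have hf' : ∀ u, f' (P.lam u) = f u := fun u => P.lam.liftOfRightInverse_comp_apply _ _ _ u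
  let fa : (Fin 4 → F) →+ ZMod 2 := AddMonoidHom.mk' (fun v => (f' (Multiplicative.ofAdd v)).toAdd)
    fun v w => by rw [ofAdd_add, map_mul, toAdd_mul]
  obtain ⟨w, hw⟩ := exists_beta_eq P.card fa
  obtain ⟨e₂, he₂⟩ := P.lam_surjective (Multiplicative.ofAdd w)
  refine ⟨((e₂ : pairCent a b) : G), (hmem _).2 e₂.2, fun x hx => ?_⟩
  let x₂ : P.twoKer := ⟨⟨x, pairTwo_le_pairCent hD hprim ht hx⟩, (hmem ⟨x, pairTwo_le_pairCent hD hprim ht hx⟩).1 hx⟩
  have hbit : bit (P.radMap (δ x₂)) = bc P.card (P.radMap e₂) (P.radMap x₂) := by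
    rw [← beta_col, show col ((P.radMap e₂ : rad P.card) : Stab F) = w from congrArg Multiplicative.toAdd he₂, hw]
    exact (congrArg Multiplicative.toAdd (hf' x₂)).symm
  have hcomJ := (pairTwo_sq_comm hD hprim ht ha hb ((hmem _).2 e₂.2) hx).2
  have hbJ : ∀ u : P.twoKer, ((u : pairCent a b) : G) = b * a → bit (P.radMap u) = 1 := fun u hu => by
    rw [bit, if_neg fun h => ((P.radMap_eq_one u).1 h).elim (fun k => h4 (hu.symm.trans k)) fun k => h5 (hu.symm.trans k)]
  have hb0 : ∀ u : P.twoKer, ((u : pairCent a b) : G) = 1 → bit (P.radMap u) = 0 := fun u hu => by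
    rw [bit, if_pos ((P.radMap_eq_one u).2 (Or.inl hu))]
  have hkey : ((δ x₂ : pairCent a b) : G) = ((e₂ : pairCent a b) : G) * x * ((e₂ : pairCent a b) : G)⁻¹ * x⁻¹ := by
    rw [bc, ← map_mul, ← map_inv, ← map_inv, ← map_mul, ← map_mul] at hbit
    rcases hJ x₂ with hl | hl <;> rcases hcomJ with hr | hr
    · rw [hl, hr]
    · rw [hb0 _ hl, hbJ _ (by simpa [x₂] using hr)] at hbit
      exact absurd hbit zero_ne_one
    · rw [hbJ _ hl, hb0 _ (by simpa [x₂] using hr)] at hbit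
      exact absurd hbit one_ne_zero
    · rw [hl, hr]
  exact mul_right_cancel hkey

/-- Centralizing `E` and fixing the pair, it fixes the joint centralizer. -/
theorem Triv.fix_pairCent (ha : a ∈ D) (hb : b ∈ perp D a) {q : MulAut G} (hq : Triv a b q)
    (hE : ∀ x ∈ pairTwo a b, q x = x) : ∀ k ∈ pairCent a b, q k = k := by
  obtain ⟨F, _, _, ⟨P⟩⟩ := exists_picture hD hprim ht ha hb
  haveI := isSimple_su4 P.card
  have hmem := mem_twoKer_iff hD hprim ht ha hb P
  have hV : ∀ k : pairCent a b, ∀ l : pairCent a b, Commute (q (k : G) * (k : G)⁻¹) (l : G) := by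
    intro k l
    have hzc : ∀ x ∈ pairTwo a b, Commute (q (k : G) * (k : G)⁻¹) x := by
      intro x hx
      have hC := pairCent_le hD hprim ht k.2
      have hy : (k : G)⁻¹ * x * (k : G)⁻¹⁻¹ ∈ pairTwo a b := pairTwo_normal hD hprim ht ha hb (inv_mem hC) hx
      have h1 := hE _ hx
      rw [show x = (k : G) * ((k : G)⁻¹ * x * (k : G)⁻¹⁻¹) * (k : G)⁻¹ by group, map_mul, map_mul, map_inv, hE _ hy] at h1
      refine mul_inv_eq_iff_eq_mul.1 ?_
      calc q (k : G) * (k : G)⁻¹ * x * (q (k : G) * (k : G)⁻¹)⁻¹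
          = q (k : G) * ((k : G)⁻¹ * x * (k : G)⁻¹⁻¹) * (q (k : G))⁻¹ := by group
        _ = x := h1.trans (by group)
    obtain ⟨hla, hlb⟩ := mem_pairCent.1 l.2
    rcases centralizer_pairTwo hD hprim ht ha hb hzc with h | h | h | h <;> rw [h]
    · exact Commute.one_left _
    · exact hla.symm
    · exact hlb.symm
    · exact (hlb.symm).mul_left hla.symm
  let M : Subgroup (pairCent a b) := (MonoidHom.eqLocus q.toMonoidHom (MonoidHom.id G)).comap (pairCent a b).subtype
  have hker : P.twoKer ≤ M := fun u hu => hE _ ((hmem u).2 hu)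
  have hcomm : commutator (pairCent a b) ≤ M := by
    rw [commutator_def, Subgroup.commutator_le]
    intro k _ l _
    show q ((⁅k, l⁆ : pairCent a b) : G) = ((⁅k, l⁆ : pairCent a b) : G)
    obtain ⟨z, hz⟩ : ∃ z, z = q (k : G) * (k : G)⁻¹ := ⟨_, rfl⟩
    obtain ⟨y, hy⟩ : ∃ y, y = q (l : G) * (l : G)⁻¹ := ⟨_, rfl⟩
    have ek : q (k : G) = z * k := by rw [hz, inv_mul_cancel_right]
    have el : q (l : G) = y * l := by rw [hy, inv_mul_cancel_right]
    have hzl : Commute z (l : G) := hz ▸ hV k l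
    have hzk : Commute z (k : G) := hz ▸ hV k k
    have hyk : Commute y (k : G) := hy ▸ hV l k
    have hyl : Commute y (l : G) := hy ▸ hV l l
    have hzy : Commute z y := by
      have := hV k ⟨y, ?_⟩
      · exact hz ▸ this
      · rw [hy]
        exact pairTwo_le_pairCent hD hprim ht (hq.triv _ (pairCent_le hD hprim ht l.2))
    simp only [commutatorElement_def, Subgroup.coe_mul, InvMemClass.coe_inv, map_mul, map_inv, ek, el]
    have s1 : ∀ u : G, Commute z u → z * u * z⁻¹ = u := fun u h => conj_eq_of_commute h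
    have s2 : ∀ u : G, Commute y u → y * u * y⁻¹ = u := fun u h => conj_eq_of_commute h
    calc z * k * (y * l) * (z * (k : G))⁻¹ * (y * (l : G))⁻¹
        = z * ((k : G) * (y * l) * (k : G)⁻¹) * z⁻¹ * (y * (l : G))⁻¹ := by group
      _ = (k : G) * (y * l) * (k : G)⁻¹ * (y * (l : G))⁻¹ := by
          rw [s1 _ (((hzk.mul_right (hzy.mul_right hzl))).mul_right hzk.inv_right)]
      _ = y * ((y⁻¹ * ((k : G) * y)) * ((l : G) * (k : G)⁻¹ * (l : G)⁻¹)) * y⁻¹ := by group
      _ = y * ((k : G) * ((l : G) * (k : G)⁻¹ * (l : G)⁻¹)) * y⁻¹ := by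
          rw [← hyk.eq, inv_mul_cancel_left]
      _ = (k : G) * l * (k : G)⁻¹ * (l : G)⁻¹ := by
          rw [s2 _ (hyk.mul_right ((hyl.mul_right hyk.inv_right).mul_right hyl.inv_right))]
          group
  intro k hk
  have hperf : (commutator (pairCent a b)).map P.proj = commutator (Cfsg.SU 4 F 2) := by
    rw [commutator_def, commutator_def, Subgroup.map_commutator, Subgroup.map_top_of_surjective _ P.proj_surjective]
  have htop : commutator (Cfsg.SU 4 F 2) = ⊤ := by
    refine ((Subgroup.commutator_normal ⊤ ⊤).eq_bot_or_eq_top).resolve_left fun h => ?_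
    have hab : ∀ u v : Cfsg.SU 4 F 2, u * v = v * u := fun u v => by
      have := Subgroup.commutator_mem_commutator (Subgroup.mem_top u) (Subgroup.mem_top v)
      rw [h, Subgroup.mem_bot, commutatorElement_eq_one_iff_mul_comm] at this
      exact this
    have hc := center_su4 P.card
    rw [show Subgroup.center (Cfsg.SU 4 F 2) = ⊤ from (Subgroup.eq_top_iff' _).2 fun u =>
      Subgroup.mem_center_iff.2 fun v => hab v u] at hc
    exact absurd hc top_ne_bot
  obtain ⟨m, hm, hme⟩ : P.proj ⟨k, hk⟩ ∈ (commutator (pairCent a b)).map P.proj := by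
    rw [hperf, htop]; trivial
  have hn : m⁻¹ * ⟨k, hk⟩ ∈ P.twoKer := MonoidHom.mem_ker.2 (by rw [map_mul, map_inv, hme, inv_mul_cancel])
  have := M.mul_mem (hcomm hm) (hker hn)
  rw [mul_inv_cancel_left] at this
  exact this

/-- The square, when the pair is exchanged. -/
theorem Triv.sq_cases (ha : a ∈ D) (hb : b ∈ perp D a) {q : MulAut G} (hq : Triv a b q)
    (hqa : q a = b) (hqb : q b = a) : q * q = 1 ∨ q * q = MulAut.conj (b * a) := by
  obtain ⟨F, _, _, ⟨P⟩⟩ := exists_picture hD hprim ht ha hb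
  obtain ⟨haK, hbK⟩ := mem_D_pairCent hD hprim ht ha hb
  obtain ⟨h1, h2, h3, h4, h5, h6, h7⟩ := pair_ne hD hprim ht ha hb
  have hmem := mem_twoKer_iff hD hprim ht ha hb P
  obtain ⟨g, hg, hge⟩ := hq.exists_sq hD hprim ht ha hb
  let g₂ : P.twoKer := ⟨⟨g, pairTwo_le_pairCent hD hprim ht hg⟩, (hmem ⟨g, pairTwo_le_pairCent hD hprim ht hg⟩).1 hg⟩
  have hJmul : ∀ u v : G, (u = 1 ∨ u = b * a) → (v = 1 ∨ v = b * a) → u * v = 1 ∨ u * v = b * a := by
    rintro u v (rfl | rfl) (rfl | rfl)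
    · left; simp
    · right; simp
    · right; simp
    · left
      calc b * a * (b * a) = b * a * (a * b) := by rw [h7]
        _ = b * (a * a) * b := by group
        _ = 1 := by rw [sq_eq_one hD.1 ha, mul_one, sq_eq_one hD.1 hb.1]
  have hfix : ∀ k : pairCent a b, g * (k : G) * g⁻¹ * (k : G)⁻¹ = 1 ∨ g * (k : G) * g⁻¹ * (k : G)⁻¹ = b * a := by
    intro k
    have hz := hq.triv k (pairCent_le hD hprim ht k.2)
    have e : g * (k : G) * g⁻¹ * (k : G)⁻¹ =
        (q (q (k : G) * (k : G)⁻¹) * (q (k : G) * (k : G)⁻¹)⁻¹) * ((q (k : G) * (k : G)⁻¹) * (q (k : G) * (k : G)⁻¹)) := by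
      rw [← MulAut.conj_apply, ← hge, MulAut.mul_apply, map_mul, map_inv]
      group
    rw [e]
    exact hJmul _ _ (hq.dev hD hprim ht ha hb hz) (pairTwo_sq_comm hD hprim ht ha hb hz hz).1
  have hcol : col ((P.radMap g₂ : rad P.card) : Stab F) = 0 := by
    refine fixed_zero P.card fun A => ?_
    obtain ⟨k, rfl⟩ := P.proj_surjective A
    rw [← P.col_radMap_conj k g₂]
    show Multiplicative.toAdd (P.lam _) = Multiplicative.toAdd (P.lam g₂)
    congr 1
    rw [← mul_inv_eq_one, ← map_inv, ← map_mul]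
    refine (P.mem_four_iff hbK _).2 ?_
    have e : ((((⟨_, P.twoKer_conj_mem k g₂⟩ : P.twoKer) * g₂⁻¹ : P.twoKer) : pairCent a b) : G) =
        (g * (k : G) * g⁻¹ * (k : G)⁻¹)⁻¹ := by
      simp only [g₂, Subgroup.coe_mul, InvMemClass.coe_inv]
      group
    rw [e]
    rcases hfix k with h | h <;> rw [h]
    · left; exact inv_one
    · right; right; right
      rw [mul_inv_rev, inv_eq hD.1 ha, inv_eq hD.1 hb.1, h7]
  have hfour := P.four_cases hbK (k := g₂) (show P.lam g₂ = 1 by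
    show Multiplicative.ofAdd (col ((P.radMap g₂ : rad P.card) : Stab F)) = 1
    rw [hcol]; rfl)
  have hqg : q g = g := by
    have h := center_trivial hD hprim ht (x := (q g)⁻¹ * g) (by
      rw [map_mul, map_inv, inv_mul_eq_one]
      refine MulEquiv.ext fun x => ?_
      obtain ⟨y, rfl⟩ := q.surjective x
      rw [← hge, MulAut.conj_apply, ← map_inv, ← map_mul, ← map_mul, MulAut.mul_apply]
      refine congrArg q ?_
      rw [← MulAut.conj_apply, ← hge, MulAut.mul_apply])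
    exact inv_mul_eq_one.1 h
  rcases hfour with h | h | h | h
  · left; rw [hge, show g = 1 from h, map_one]
  · rw [show g = a from h, hqa] at hqg; exact absurd hqg h3
  · rw [show g = b from h, hqb] at hqg; exact absurd hqg.symm h3
  · right; rw [hge, show g = b * a from h]

end CfsgLib.Fischer.M22Pair
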