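import Cfsg.Agent.Lib.Fischer.TypeTwentyTwoAut
import Cfsg.Agent.Lib.Fischer.TypeTwentyTwoPairs

/-!
Groups of type M(22): an automorphism fixing a commuting pair and their common neighbours is inner.
-/

set_option autoImplicit false
set_option linter.unusedSectionVars false

namespace CfsgLib.Fischer.M22Pair

open CfsgLib.Fischer CfsgLib.InvChar.FischerProducts CfsgLib.InvChar.FischerHexad
open CfsgLib.InvChar.UnitaryTVTwo CfsgLib.Fischer.UnitaryHyperoval CfsgLib.Fischer.TypeTwentyTwo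

variable {G : Type*} [Group G] [Finite G] {D : Set G}
variable (hD : Cfsg.IsThreeTranspositionGroup D) (hprim : Cfsg.IsPrimitiveUnderConj D)
  (ht : Cfsg.IsOfTypeM22 G D)

include hD hprim ht

/-- The image of a neighbour is that neighbour or its conjugate by `b`. -/
theorem image_cases {a b c : G} (ha : a ∈ D) (hb : b ∈ perp D a) (hc : c ∈ perp D a) (hbc : ¬ Commute b c)
    {φ : G ≃* G} (hφD : ∀ x, φ x ∈ D ↔ x ∈ D) (hφa : φ a = a) (hφb : φ b = b)
    (hfix : ∀ f ∈ perp D a ∩ perp D b, φ f = f) : φ c = c ∨ φ c = b * c * b⁻¹ := by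
  have hG := good_of_primitive hD hprim ht.1
  obtain ⟨F, _, _, hF, ⟨e⟩⟩ := exists_equiv_of_type22 hD hprim ht ha
  let H : Subgroup G := Subgroup.closure (perp D a)
  obtain ⟨hT, hconjT⟩ := image_tt hG ha (H := H) rfl e
  have hc' : φ c ∈ perp D a := (map_mem_perp_iff hφD hφa).2 hc
  have hbc' : ¬ Commute b (φ c) := by
    intro h
    rw [← hφb] at h
    exact hbc (φ.injective (by rw [map_mul, map_mul]; exact h.eq))
  let b₁ : H := ⟨b, mem_of_perp rfl hb⟩
  let c₁ : H := ⟨c, mem_of_perp rfl hc⟩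
  let c₂ : H := ⟨φ c, mem_of_perp rfl hc'⟩
  obtain ⟨v, hv, hv0, hbv⟩ := exists_pv_of_mem hF (by norm_num) hT hconjT ⟨b₁, hb, rfl⟩
  obtain ⟨w, hw, hw0, hcw⟩ := exists_pv_of_mem hF (by norm_num) hT hconjT ⟨c₁, hc, rfl⟩
  obtain ⟨r, hr, hr0, hcr⟩ := exists_pv_of_mem hF (by norm_num) hT hconjT ⟨c₂, hc', rfl⟩
  have hcomm : ∀ (x y : H) {v w : Fin 6 → F} (hv : Cfsg.hermForm 6 F 2 v v = 0) (hw : Cfsg.hermForm 6 F 2 w w = 0),
      x ∈ memberSet D a H → y ∈ memberSet D a H → quotMap e x = pv hF v hv → quotMap e y = pv hF w hw →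
      Cfsg.hermForm 6 F 2 v w = 0 → Commute (x : G) y := by
    intro x y v w hv hw hx hy ex ey h
    refine commute_of_quotMap hG ha (H := H) rfl e hx hy ?_
    rw [ex, ey]
    exact (tv_commute hF hv hw h).map (QuotientGroup.mk' _)
  have hvw : Cfsg.hermForm 6 F 2 v w ≠ 0 := fun h => hbc (hcomm b₁ c₁ hv hw hb hc hbv hcw h)
  have hrv : Cfsg.hermForm 6 F 2 r v ≠ 0 := fun h => hbc' (hcomm c₂ b₁ hr hv hc' hb hcr hbv h).symm
  have hperp : ∀ k, Cfsg.hermForm 6 F 2 k k = 0 → Cfsg.hermForm 6 F 2 k v = 0 →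
      Cfsg.hermForm 6 F 2 k w = 0 → Cfsg.hermForm 6 F 2 k r = 0 := by
    intro k hk hkv hkw
    by_cases hk0 : k = 0
    · subst hk0; exact (conj hF).zero_left _
    obtain ⟨f, hf, hfk⟩ := pv_mem hF (by norm_num) hT hconjT ⟨_, b₁, hb, rfl⟩ hk hk0
    have hfb : Commute (f : G) b := hcomm f b₁ hk hv hf hb hfk hbv hkv
    have hfc : Commute (f : G) c := hcomm f c₁ hk hw hf hc hfk hcw hkw
    have hne : (f : G) ≠ b := fun h => hbc (h ▸ hfc)
    have hfc' : Commute (f : G) (φ c) := by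
      rw [← hfix f ⟨hf, hf.1, hne, hfb.symm⟩]
      exact hfc.map φ
    refine herm_eq_zero_of_commute hF (by norm_num) hk hr ?_
    rw [← hfk, ← hcr]
    exact (show Commute f c₂ from Subtype.ext hfc'.eq).map _
  rcases pv_eq_or_conj hF (by norm_num) hv hw hr hvw hrv hperp with h | h
  · exact Or.inl (congrArg Subtype.val
      (quotMap_inj hG ha (H := H) rfl e hc' hc (hcr.trans (h.trans hcw.symm))))
  · exact Or.inr (congrArg Subtype.val (quotMap_inj hG ha (H := H) rfl e hc' (y := b₁ * c₁ * b₁⁻¹)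
      ((memberSet_tt hG.tt rfl).2.1 b₁ _ hc) (hcr.trans (h.trans (by rw [map_mul, map_mul, map_inv, hbv, hcw])))))

theorem fix_neighbours {a b c : G} (ha : a ∈ D) (hb : b ∈ perp D a) (hc : c ∈ perp D a) (hbc : ¬ Commute b c)
    {φ : G ≃* G} (hφD : ∀ x, φ x ∈ D ↔ x ∈ D) (hφa : φ a = a) (hφb : φ b = b) (hφc : φ c = c)
    (hfix : ∀ f ∈ perp D a ∩ perp D b, φ f = f) : ∀ f ∈ perp D a, φ f = f := by
  have hG := good_of_primitive hD hprim ht.1
  have key : ∀ c c' : G, c ∈ perp D a → c' ∈ perp D a → ¬ Commute b c → ¬ Commute b c' → φ c = c →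
      Commute c c' → φ c' = c' := by
    intro c c' hc hc' hbc hbc' hφc hcc'
    rcases image_cases hD hprim ht ha hb hc' hbc' hφD hφa hφb hfix with h | h
    · exact h
    exfalso
    have h1 : Commute c (b * c' * b⁻¹) := by
      rw [← h, ← hφc]
      exact hcc'.map φ
    rw [inv_eq hD.1 hb.1, braid hD.1 hb.1 hc'.1 hbc'] at h1
    have h2 : Commute c (c' * (c' * b * c') * c') := (hcc'.mul_right h1).mul_right hcc'
    rw [show c' * (c' * b * c') * c' = (c' * c') * b * (c' * c') by group, sq_eq_one hD.1 hc'.1, one_mul,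
      mul_one] at h2
    exact hbc h2.symm
  intro f hf
  by_cases hfb : f = b
  · rw [hfb, hφb]
  by_cases hcomb : Commute b f
  · exact hfix f ⟨hf, hf.1, hfb, hcomb⟩
  by_cases hcf : Commute c f
  · exact key c f hc hf hbc hcomb hφc hcf
  obtain ⟨F, _, _, hF, ⟨e⟩⟩ := exists_equiv_of_type22 hD hprim ht ha
  let H : Subgroup G := Subgroup.closure (perp D a)
  obtain ⟨hT, hconjT⟩ := image_tt hG ha (H := H) rfl e
  let b₁ : H := ⟨b, mem_of_perp rfl hb⟩
  let c₁ : H := ⟨c, mem_of_perp rfl hc⟩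
  let f₁ : H := ⟨f, mem_of_perp rfl hf⟩
  obtain ⟨v, hv, hv0, hbv⟩ := exists_pv_of_mem hF (by norm_num) hT hconjT ⟨b₁, hb, rfl⟩
  obtain ⟨w, hw, hw0, hcw⟩ := exists_pv_of_mem hF (by norm_num) hT hconjT ⟨c₁, hc, rfl⟩
  obtain ⟨r, hr, hr0, hfr⟩ := exists_pv_of_mem hF (by norm_num) hT hconjT ⟨f₁, hf, rfl⟩
  have hcomm : ∀ (x y : H) {v w : Fin 6 → F} (hv : Cfsg.hermForm 6 F 2 v v = 0) (hw : Cfsg.hermForm 6 F 2 w w = 0),
      x ∈ memberSet D a H → y ∈ memberSet D a H → quotMap e x = pv hF v hv → quotMap e y = pv hF w hw →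
      Cfsg.hermForm 6 F 2 v w = 0 → Commute (x : G) y := by
    intro x y v w hv hw hx hy ex ey h
    refine commute_of_quotMap hG ha (H := H) rfl e hx hy ?_
    rw [ex, ey]
    exact (tv_commute hF hv hw h).map (QuotientGroup.mk' _)
  have hwr : Cfsg.hermForm 6 F 2 w r ≠ 0 := fun h => hcf (hcomm c₁ f₁ hw hr hc hf hcw hfr h)
  have hvw : Cfsg.hermForm 6 F 2 v w ≠ 0 := fun h => hbc (hcomm b₁ c₁ hv hw hb hc hbv hcw h)
  by_cases hex : ∃ k, Cfsg.hermForm 6 F 2 k k = 0 ∧ Cfsg.hermForm 6 F 2 k w = 0 ∧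
      Cfsg.hermForm 6 F 2 k r = 0 ∧ Cfsg.hermForm 6 F 2 k v ≠ 0
  · obtain ⟨k, hk, hkw, hkr, hkv⟩ := hex
    obtain ⟨m, hm, hmk⟩ := pv_mem hF (by norm_num) hT hconjT ⟨_, b₁, hb, rfl⟩ hk
      (fun h => hkv (by rw [h]; exact (conj hF).zero_left _))
    have hmb : ¬ Commute b (m : G) := fun h => hkv (herm_eq_zero_of_commute hF (by norm_num) hk hv (by
      rw [← hmk, ← hbv]
      exact (show Commute m b₁ from Subtype.ext h.symm.eq).map _))
    have hφm : φ (m : G) = m :=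
      key c m hc hm hbc hmb hφc (hcomm m c₁ hk hw hm hc hmk hcw hkw).symm
    exact key m f hm hf hmb hcomb hφm (hcomm m f₁ hk hr hm hf hmk hfr hkr)
  push Not at hex
  rcases pv_eq_or_conj hF (by norm_num) hw hr hv hwr hvw hex with h | h
  · exact absurd (Commute.refl b) fun _ => hfb (congrArg Subtype.val
      (quotMap_inj hG ha (H := H) rfl e hf (y := b₁) hb (hfr.trans (h.symm.trans hbv.symm))))
  · have e1 : b₁ = c₁ * f₁ * c₁⁻¹ := quotMap_inj hG ha (H := H) rfl e hb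
      ((memberSet_tt hG.tt rfl).2.1 c₁ _ hf) (hbv.trans (h.trans (by rw [map_mul, map_mul, map_inv, hcw, hfr])))
    have e2 : b = c * f * c⁻¹ := congrArg Subtype.val e1
    have e3 : f = c⁻¹ * b * c := by rw [e2]; group
    rw [e3, map_mul, map_mul, map_inv, hφc, hφb]

/-- An automorphism fixing a pair and its common neighbours is inner. -/
theorem inner_of_fix_common {a b : G} (ha : a ∈ D) (hb : b ∈ perp D a)
    {φ : G ≃* G} (hφD : ∀ x, φ x ∈ D ↔ x ∈ D) (hφa : φ a = a) (hφb : φ b = b)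
    (hfix : ∀ f ∈ perp D a ∩ perp D b, φ f = f) : ∃ g : G, φ = MulAut.conj g := by
  have hG := good_of_primitive hD hprim ht.1
  obtain ⟨c, hc, hbc⟩ := not_central hG ha hb
  have hfin : ∀ ψ : G ≃* G, (∀ x, ψ x ∈ D ↔ x ∈ D) → ψ a = a → ψ b = b → ψ c = c →
      (∀ f ∈ perp D a ∩ perp D b, ψ f = f) → ∃ g : G, ψ = MulAut.conj g := by
    intro ψ hψD hψa hψb hψc hψ
    rcases eq_of_fix_perp hD hprim ht hψD ha hψa
      (fix_neighbours hD hprim ht ha hb hc hbc hψD hψa hψb hψc hψ) with h | h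
    · exact ⟨1, h.trans (map_one MulAut.conj).symm⟩
    · exact ⟨a, h⟩
  rcases image_cases hD hprim ht ha hb hc hbc hφD hφa hφb hfix with h | h
  · exact hfin φ hφD hφa hφb h hfix
  obtain ⟨g, hg⟩ := hfin (φ.trans (MulAut.conj b)) (fun x => by
      rw [MulEquiv.trans_apply, MulAut.conj_apply]; exact (conj_iff hD _).trans (hφD x))
    (by rw [MulEquiv.trans_apply, hφa, MulAut.conj_apply, conj_eq_of_commute hb.2.2.symm])
    (by rw [MulEquiv.trans_apply, hφb, MulAut.conj_apply, mul_inv_cancel_right])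
    (by
      rw [MulEquiv.trans_apply, h, MulAut.conj_apply, inv_eq hD.1 hb.1,
        show b * (b * c * b) * b = (b * b) * c * (b * b) by group, sq_eq_one hD.1 hb.1, one_mul, mul_one])
    (fun f hf => by
      rw [MulEquiv.trans_apply, hfix f hf, MulAut.conj_apply, conj_eq_of_commute hf.2.2.2])
  refine ⟨b⁻¹ * g, MulEquiv.ext fun x => (MulAut.conj b).injective ?_⟩
  have h1 : MulAut.conj b (φ x) = MulAut.conj g x := by rw [← hg]; rfl
  rw [h1, map_mul]
  simp [MulAut.conj_apply, mul_assoc]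

end CfsgLib.Fischer.M22Pair
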