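import Cfsg.Agent.Lib.Fischer.UnitaryPointPairing

/-!
The natural module of `SU₄(2)`: equivariant additive maps are scalars; the pairing is self-dual.
-/

set_option autoImplicit false
set_option linter.unusedSectionVars false

namespace CfsgLib.Fischer.M22Pair

open Matrix CfsgLib.InvChar.UnitaryTVTwo CfsgLib.Fischer.UnitaryPoint

variable {F : Type} [Field F] [Fintype F] (hF : Fintype.card F = 4)
include hF

theorem scalar_of_equivariant (L : (Fin 4 → F) →+ (Fin 4 → F))
    (h : ∀ (A : Cfsg.SU 4 F 2) x, L (mat A *ᵥ x) = mat A *ᵥ L x) : ∃ c : F, ∀ x, L x = c • x := by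
  obtain ⟨θ, hθ, -, hθ0, hθ1, hall⟩ := exists_theta hF
  have hoff : ∀ (i k : Fin 4), k ≠ i → ∀ v, L (Pi.single i v) k = 0 := by
    intro i k hki v
    obtain ⟨l, hli, hlk⟩ : ∃ l : Fin 4, l ≠ i ∧ l ≠ k := by revert hki; revert i k; decide
    let d : Fin 4 → F := fun m => if m = k then θ else if m = l then θ⁻¹ else 1
    obtain ⟨A, hA⟩ := exists_diag hF d (fun m => by simp only [d]; split_ifs <;> simp [hθ0]) (by
      rw [← Finset.prod_subset (Finset.subset_univ ({k, l} : Finset (Fin 4))) (fun m _ hm => by
        simp only [Finset.mem_insert, Finset.mem_singleton, not_or] at hm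
        simp [d, hm.1, hm.2]), Finset.prod_pair hlk.symm]
      simp [d, hlk, hθ0])
    have h1 := congrFun (h A (Pi.single i v)) k
    have e : mat A *ᵥ Pi.single i v = Pi.single i v := funext fun m => by
      rw [hA]
      by_cases hm : m = i <;> simp [hm, d, hki.symm, hli.symm]
    rw [e, hA] at h1
    simp only [d, if_true] at h1
    have h2 : (θ - 1) * L (Pi.single i v) k = 0 := by linear_combination -h1
    exact (mul_eq_zero.1 h2).resolve_left (sub_ne_zero.2 hθ1)
  have hθmul : ∀ v, L (Pi.single 0 (θ * v)) 0 = θ * L (Pi.single 0 v) 0 := by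
    intro v
    obtain ⟨A, hA, -⟩ := exists_scale hF 0 1 (by decide) hθ0
    have h1 := congrFun (h A (Pi.single 0 v)) 0
    rw [hA] at h1
    rw [h1, ← Finset.univ_sum_single (L (Pi.single 0 v)), mulVec_sum, Finset.sum_apply, Finset.sum_apply]
    rw [Finset.sum_eq_single 0 (fun m _ hm => by rw [hoff 0 m hm, Pi.single_zero, mulVec_zero]; rfl) (by simp),
      Finset.sum_eq_single 0 (fun m _ hm => by rw [hoff 0 m hm, Pi.single_zero]; rfl) (by simp),
      hA, Pi.single_eq_same, Pi.single_eq_same]
  have hlin : ∀ v, L (Pi.single 0 v) 0 = L (Pi.single 0 1) 0 * v := by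
    intro v
    rcases hall v with hv | hv | hv | hv <;> rw [hv]
    · simp
    · simp
    · have := hθmul 1
      rw [mul_one] at this
      rw [this, mul_comm]
    · have := hθmul 1
      rw [mul_one] at this
      rw [show (conj hF).σ θ = 1 + θ by linear_combination hθ - θ * one_sq hF, Pi.single_add, map_add,
        Pi.add_apply, this]
      ring
  have hdiag : ∀ i v, L (Pi.single i v) i = L (Pi.single 0 1) 0 * v := by
    intro i v
    obtain ⟨A, hA⟩ := exists_swap hF i 0
    have e : mat A *ᵥ Pi.single 0 v = Pi.single i v := funext fun k => by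
      rw [hA, Pi.single_apply, Pi.single_apply]
      simp [Equiv.apply_eq_iff_eq_symm_apply]
    have h1 := congrFun (h A (Pi.single 0 v)) i
    rw [e, hA, Equiv.swap_apply_left] at h1
    rw [h1, hlin]
  refine ⟨L (Pi.single 0 1) 0, fun x => funext fun k => ?_⟩
  conv_lhs => rw [← Finset.univ_sum_single x, map_sum, Finset.sum_apply]
  rw [Finset.sum_eq_single k (fun i _ hi => hoff i k (Ne.symm hi) _) (by simp), hdiag]
  rfl

theorem exists_beta_eq (f : (Fin 4 → F) →+ ZMod 2) : ∃ w, beta hF w = f := by
  classical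
  obtain ⟨θ, hθ, -, hθ0, hθ1, hall⟩ := exists_theta hF
  let ev : ((Fin 4 → F) →+ ZMod 2) → (Fin 4 → ZMod 2 × ZMod 2) :=
    fun f i => (f (Pi.single i 1), f (Pi.single i θ))
  have hev : Function.Injective ev := by
    intro f g hfg
    refine AddMonoidHom.functions_ext (ZMod 2) f g fun i v => ?_
    have h1 := congrFun hfg i
    simp only [ev, Prod.mk.injEq] at h1
    have hσ : (conj hF).σ θ = 1 + θ := by linear_combination hθ - θ * one_sq hF
    rcases hall v with rfl | rfl | rfl | rfl
    · simp
    · exact h1.1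
    · exact h1.2
    · rw [hσ, Pi.single_add, map_add, map_add, h1.1, h1.2]
  have hinj : Function.Injective (beta hF) := fun u v h => by
    refine sub_eq_zero.1 ((pairing_beta hF).eq_zero hF (beta_ne hF) fun x => ?_)
    rw [map_sub, AddMonoidHom.sub_apply, h, sub_self]
  haveI : Finite ((Fin 4 → F) →+ ZMod 2) := Finite.of_injective ev hev
  refine (hinj.bijective_of_nat_card_le ?_).2 f
  refine le_trans (Nat.card_le_card_of_injective ev hev) (le_of_eq ?_)
  simp [Nat.card_eq_fintype_card, hF]

end CfsgLib.Fischer.M22Pair
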