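import Cfsg.Agent.Lib.Fischer.TypeTwentyTwoPairStructure
import Cfsg.Agent.Lib.Fischer.M22Pair.Scalar

/-!
Groups of type M(22): the normal 2-subgroup `E` of the centralizer of `a * b`.
-/

set_option autoImplicit false
set_option linter.unusedSectionVars false

namespace CfsgLib.Fischer.M22Pair

open CfsgLib.Fischer CfsgLib.InvChar.FischerProducts CfsgLib.InvChar.FischerHexad
open CfsgLib.InvChar.UnitaryTVTwo CfsgLib.Fischer.UnitaryPoint CfsgLib.Fischer.TypeTwentyTwo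

variable {G : Type*} [Group G] [Finite G] {D : Set G} {a b : G}
variable (hD : Cfsg.IsThreeTranspositionGroup D) (hprim : Cfsg.IsPrimitiveUnderConj D)
  (ht : Cfsg.IsOfTypeM22 G D)

theorem mem_twoKer_iff (hD : Cfsg.IsThreeTranspositionGroup D) (hprim : Cfsg.IsPrimitiveUnderConj D)
    (ht : Cfsg.IsOfTypeM22 G D) (ha : a ∈ D) (hb : b ∈ perp D a) {F : Type} [Field F] [Fintype F]
    (P : Picture D a b F) (k : pairCent a b) : (k : G) ∈ pairTwo a b ↔ k ∈ P.twoKer := by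
  rw [pairTwo_eq hD hprim ht ha hb P]
  exact ⟨fun ⟨l, hl, e⟩ => (Subtype.ext e : l = k) ▸ hl, fun h => ⟨k, h, rfl⟩⟩

include hD hprim ht

theorem pair_ne (ha : a ∈ D) (hb : b ∈ perp D a) :
    a ≠ 1 ∧ b ≠ 1 ∧ b ≠ a ∧ b * a ≠ 1 ∧ b * a ≠ a ∧ b * a ≠ b ∧ a * b = b * a := by
  have h1 := ne_one hD.1 ha
  have h2 := ne_one hD.1 hb.1
  refine ⟨h1, h2, hb.2.1, fun h => hb.2.1 ?_, fun h => h2 ?_, fun h => h1 ?_, hb.2.2.eq⟩
  · rw [mul_eq_one_iff_eq_inv.1 h, inv_eq hD.1 ha]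
  · exact mul_eq_right.1 h
  · exact mul_eq_left.1 h

theorem pairTwo_le_centralizer : pairTwo a b ≤ Subgroup.centralizer ({a * b} : Set G) :=
  (pairTwo_le_pairCent hD hprim ht).trans (pairCent_le hD hprim ht)

theorem pair_mem_pairTwo (ha : a ∈ D) (hb : b ∈ perp D a) :
    a ∈ pairTwo a b ∧ b ∈ pairTwo a b :=
  ⟨closure_le_pairTwo hD hprim ht ha hb (Subgroup.subset_closure (Or.inl rfl)),
    closure_le_pairTwo hD hprim ht ha hb (Subgroup.subset_closure (Or.inr rfl))⟩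

theorem exists_swap_data (ha : a ∈ D) (hb : b ∈ perp D a) {F : Type} [Field F] [Fintype F]
    (P : Picture D a b F) : ∃ (g : G) (cg : P.twoKer →* P.twoKer), P.Swap g cg := by
  obtain ⟨haK, hbK⟩ := mem_D_pairCent hD hprim ht ha hb
  have hmem := mem_twoKer_iff hD hprim ht ha hb P
  obtain ⟨g, hga, hgb⟩ := exists_pair_swap hD hprim ht ha hb
  have hgC := swap_mem hD hprim ht hb hga hgb
  have hgm : ∀ x : P.twoKer, g * ((x : pairCent a b) : G) * g⁻¹ ∈ pairTwo a b := fun x =>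
    pairTwo_normal hD hprim ht ha hb hgC ((hmem _).2 x.2)
  have hgK : ∀ x : P.twoKer, g * ((x : pairCent a b) : G) * g⁻¹ ∈ pairCent a b := fun x =>
    pairTwo_le_pairCent hD hprim ht (hgm x)
  refine ⟨g, MonoidHom.mk' (fun x => ⟨⟨_, hgK x⟩, (hmem ⟨_, hgK x⟩).1 (hgm x)⟩) fun x y =>
      Subtype.ext (Subtype.ext (by simp [mul_assoc])), hga, hgb, hb.2.2, fun _ => rfl, fun k => ?_, hbK⟩
  obtain ⟨h1, h2⟩ := mem_pairCent.1 k.2
  have e1 := (conj_commute_iff g _ _).2 h1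
  have e2 := (conj_commute_iff g _ _).2 h2
  rw [hga] at e1
  rw [hgb] at e2
  exact mem_pairCent.2 ⟨e2, e1⟩

/-- The four elements, by their bit. -/
theorem nu_four (ha : a ∈ D) (hb : b ∈ perp D a) {F : Type} [Field F] [Fintype F] {P : Picture D a b F} {g : G}
    {cg : P.twoKer →* P.twoKer} (hs : P.Swap g cg) {v : P.twoKer} (hv : v ∈ P.four) :
    ((((v : pairCent a b) : G) = 1 ∨ ((v : pairCent a b) : G) = b * a) ∧ Picture.nu cg v = 0) ∨
      ((((v : pairCent a b) : G) = a ∨ ((v : pairCent a b) : G) = b) ∧ Picture.nu cg v = 1) := by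
  obtain ⟨h1, h2, h3, h4, h5, h6, h7⟩ := pair_ne hD hprim ht ha hb
  have hz : ∀ u : P.twoKer, ((u : pairCent a b) : G) ≠ 1 → ((u : pairCent a b) : G) ≠ a →
      bit (P.radMap u) = 1 := fun u e1 e2 => by
    rw [bit, if_neg fun h => ((P.radMap_eq_one u).1 h).elim e1 e2]
  have ho : ∀ u : P.twoKer, ((u : pairCent a b) : G) = 1 ∨ ((u : pairCent a b) : G) = a →
      bit (P.radMap u) = 0 := fun u e => by
    rw [bit, if_pos ((P.radMap_eq_one u).2 e)]
  rcases P.four_cases hs.memb hv with h | h | h | h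
  · refine Or.inl ⟨Or.inl h, ?_⟩
    rw [Picture.nu, ho v (Or.inl h), ho (cg v) (Or.inl (by rw [hs.coe, h]; group)), add_zero]
  · refine Or.inr ⟨Or.inl h, ?_⟩
    rw [Picture.nu, ho v (Or.inr h), hz (cg v) (by rw [hs.coe, h, hs.ga]; exact h2)
      (by rw [hs.coe, h, hs.ga]; exact h3), zero_add]
  · refine Or.inr ⟨Or.inr h, ?_⟩
    rw [Picture.nu, hz v (by rw [h]; exact h2) (by rw [h]; exact h3),
      ho (cg v) (Or.inr (by rw [hs.coe, h, hs.gb])), add_zero]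
  · refine Or.inl ⟨Or.inr h, ?_⟩
    have e : ((cg v : pairCent a b) : G) = b * a := by
      rw [hs.coe, h, show g * (b * a) * g⁻¹ = (g * b * g⁻¹) * (g * a * g⁻¹) by group, hs.gb, hs.ga, h7]
    rw [Picture.nu, hz v (by rw [h]; exact h4) (by rw [h]; exact h5),
      hz (cg v) (by rw [e]; exact h4) (by rw [e]; exact h5)]
    exact CharTwo.add_self_eq_zero _

theorem nu_eq_zero_iff (ha : a ∈ D) (hb : b ∈ perp D a) {F : Type} [Field F] [Fintype F] {P : Picture D a b F}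
    {g : G} {cg : P.twoKer →* P.twoKer} (hs : P.Swap g cg) {v : P.twoKer} (hv : v ∈ P.four) :
    Picture.nu cg v = 0 ↔ ((v : pairCent a b) : G) = 1 ∨ ((v : pairCent a b) : G) = b * a := by
  obtain ⟨h1, h2, h3, h4, h5, h6, -⟩ := pair_ne hD hprim ht ha hb
  rcases nu_four hD hprim ht ha hb hs hv with ⟨h, h0⟩ | ⟨h, h0⟩
  · exact iff_of_true h0 h
  · refine iff_of_false (by rw [h0]; exact one_ne_zero) ?_
    rintro (k | k) <;> rcases h with h | h <;> rw [h] at k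
    exacts [h1 k, h2 k, h5 k.symm, h6 k.symm]

/-- Squares and commutators of `E`. -/
theorem pairTwo_sq_comm (ha : a ∈ D) (hb : b ∈ perp D a) {x y : G} (hx : x ∈ pairTwo a b) (hy : y ∈ pairTwo a b) :
    (x * x = 1 ∨ x * x = b * a) ∧ (x * y * x⁻¹ * y⁻¹ = 1 ∨ x * y * x⁻¹ * y⁻¹ = b * a) := by
  obtain ⟨F, _, _, ⟨P⟩⟩ := exists_picture hD hprim ht ha hb
  obtain ⟨g, cg, hs⟩ := exists_swap_data hD hprim ht ha hb P
  have hmem := mem_twoKer_iff hD hprim ht ha hb P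
  let x₁ : pairCent a b := ⟨x, pairTwo_le_pairCent hD hprim ht hx⟩
  let y₁ : pairCent a b := ⟨y, pairTwo_le_pairCent hD hprim ht hy⟩
  let x₂ : P.twoKer := ⟨x₁, (hmem x₁).1 hx⟩
  let y₂ : P.twoKer := ⟨y₁, (hmem y₁).1 hy⟩
  obtain ⟨hc, hc0⟩ := hs.comm_four x₂ y₂
  exact ⟨(nu_eq_zero_iff hD hprim ht ha hb hs (Picture.sq_four x₂)).1 (hs.sq_zero x₂),
    (nu_eq_zero_iff hD hprim ht ha hb hs hc).1 hc0⟩

/-- Elements of `C` acting trivially on `K/E` lie in `E`. -/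
theorem mem_pairTwo_of_trivial (ha : a ∈ D) (hb : b ∈ perp D a) {c : G}
    (hc : c ∈ Subgroup.centralizer ({a * b} : Set G))
    (h : ∀ k ∈ pairCent a b, c * k * c⁻¹ * k⁻¹ ∈ pairTwo a b) : c ∈ pairTwo a b := by
  obtain ⟨F, _, _, ⟨P⟩⟩ := exists_picture hD hprim ht ha hb
  have hmem := mem_twoKer_iff hD hprim ht ha hb P
  rcases mem_centralizer_cases hD hprim ht ha hb hc with hg | ⟨h1, h2⟩
  · have hz : P.proj ⟨c, hg⟩ ∈ Subgroup.center (Cfsg.SU 4 F 2) := by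
      refine Subgroup.mem_center_iff.2 fun s => ?_
      obtain ⟨k, rfl⟩ := P.proj_surjective s
      have h3 : P.proj (⟨c, hg⟩ * k * ⟨c, hg⟩⁻¹ * k⁻¹) = 1 :=
        (hmem _).1 (by simpa using h k k.2)
      rw [map_mul, map_mul, map_mul, map_inv, map_inv, mul_inv_eq_one, mul_inv_eq_iff_eq_mul] at h3
      exact h3.symm
    rw [center_su4 P.card, Subgroup.mem_bot] at hz
    exact (hmem ⟨c, hg⟩).2 hz
  · refine absurd (fun k => ?_) (exists_not_mem hD hprim ht ha hb P h1 h2)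
    have hm := h k k.2
    exact ⟨⟨_, pairTwo_le_pairCent hD hprim ht hm⟩, (hmem ⟨_, pairTwo_le_pairCent hD hprim ht hm⟩).1 hm, rfl⟩

/-- The centralizer of `E` in `C` is the four-group. -/
theorem centralizer_pairTwo (ha : a ∈ D) (hb : b ∈ perp D a) {c : G}
    (hc : ∀ x ∈ pairTwo a b, Commute c x) : c = 1 ∨ c = a ∨ c = b ∨ c = b * a := by
  obtain ⟨F, _, _, ⟨P⟩⟩ := exists_picture hD hprim ht ha hb
  have hmem := mem_twoKer_iff hD hprim ht ha hb P
  obtain ⟨haE, hbE⟩ := pair_mem_pairTwo hD hprim ht ha hb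
  have hcK : c ∈ pairCent a b := mem_pairCent.2 ⟨hc a haE, hc b hbE⟩
  have hproj : P.proj ⟨c, hcK⟩ = 1 := by
    refine mat_inj (Matrix.ext_of_mulVec_single fun i => ?_)
    obtain ⟨v, hv⟩ := P.lam_surjective (Multiplicative.ofAdd (Pi.single i 1))
    have hv' : col ((P.radMap v : rad P.card) : Stab F) = (Pi.single i 1 : Fin 4 → F) :=
      congrArg Multiplicative.toAdd hv
    have h2 := P.col_radMap_conj ⟨c, hcK⟩ v
    have e : (⟨_, P.twoKer_conj_mem ⟨c, hcK⟩ v⟩ : P.twoKer) = v :=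
      Subtype.ext (Subtype.ext (conj_eq_of_commute (hc _ ((hmem _).2 v.2))))
    rw [e, hv'] at h2
    rw [mat_one, Matrix.one_mulVec]
    exact h2.symm
  let c₂ : P.twoKer := ⟨⟨c, hcK⟩, MonoidHom.mem_ker.2 hproj⟩
  refine P.four_cases (mem_D_pairCent hD hprim ht ha hb).2 (k := c₂) ?_
  show colHom P.card (P.radMap c₂) = 1
  have h0 : col ((P.radMap c₂ : rad P.card) : Stab F) = 0 := by
    refine (pairing_beta P.card).eq_zero P.card (beta_ne P.card) fun x => ?_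
    obtain ⟨u, hu⟩ := P.lam_surjective (Multiplicative.ofAdd x)
    rw [← show col ((P.radMap u : rad P.card) : Stab F) = x from congrArg Multiplicative.toAdd hu, beta_col, bc,
      ← map_mul, ← map_inv, ← map_inv, ← map_mul, ← map_mul,
      show c₂ * u * c₂⁻¹ * u⁻¹ = 1 by
        rw [mul_inv_eq_one, mul_inv_eq_iff_eq_mul]
        exact Subtype.ext (Subtype.ext (hc _ ((hmem _).2 u.2)).eq)]
    simp [bit]
  show Multiplicative.ofAdd (col ((P.radMap c₂ : rad P.card) : Stab F)) = 1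
  rw [h0]
  rfl

end CfsgLib.Fischer.M22Pair
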