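import Cfsg.Agent.Lib.Fischer2.LargeExtraspecial

/-!
An odd-order subgroup normalised by a large extraspecial 2-subgroup is trivial when no odd prime occurs in the group
order to a power as high as the degree of the faithful representation of the extraspecial group.
-/

set_option autoImplicit false
set_option linter.style.haveILetI false

namespace CfsgLib.Fischer.M22Pair

open CfsgLib.Fischer2

/-- Operators permuted up to distinct sign characters by conjugation are linearly independent. -/
theorem linearIndependent_of_eigen {F V Q ι : Type*} [Field F] [AddCommGroup V] [Module F V] [Group Q]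
    (ρ : Q →* Module.End F V) (χ : ι → Q →* F) (hχ : Function.Injective χ) (T : ι → Module.End F V)
    (hT : ∀ i r, ρ r * T i * ρ r⁻¹ = χ i r • T i) (hne : ∀ i, T i ≠ 0) : LinearIndependent F T := by
  rw [linearIndependent_iff']
  intro s c hsum i hi
  have key : ∀ φ : Module.Dual F (Module.End F V), c i * φ (T i) = 0 := by
    intro φ
    have hdist := (linearIndependent_monoidHom Q F).comp χ hχ
    refine linearIndependent_iff'.1 hdist s (fun j => c j * φ (T j)) ?_ i hi
    funext r
    have h := congrArg (fun S => φ (ρ r * S * ρ r⁻¹)) hsum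
    simp only [Finset.mul_sum, Finset.sum_mul, mul_smul_comm, smul_mul_assoc, hT, mul_zero, zero_mul, map_zero,
      map_sum, map_smul, smul_eq_mul] at h
    rw [Pi.zero_apply, Finset.sum_apply, ← h]
    refine Finset.sum_congr rfl fun j _ => ?_
    simp only [Pi.smul_apply, Function.comp_apply, smul_eq_mul]
    ring
  by_contra hc
  exact hne i ((Module.forall_dual_apply_eq_zero_iff F _).1 fun φ => (mul_eq_zero.1 (key φ)).resolve_left hc)

/-- A group with centre of order two and quotient of order `2^(2w)` acting with the central involution as `-1` needs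
dimension at least `2^w`. -/
theorem two_pow_le_finrank {p w : ℕ} [hp : Fact p.Prime] (hp2 : p ≠ 2) {Q W : Type*} [Group Q] [Finite Q]
    [AddCommGroup W] [Module (ZMod p) W] [Finite W] [Nontrivial W] (ρ : Q →* Module.End (ZMod p) W) (z : Q)
    (hzz : z * z = 1) (hzc : ∀ r, r * z = z * r) (hρz : ρ z = -1) (hz1 : z ≠ 1)
    (hor : ∀ x r : Q, r * x * r⁻¹ = x ∨ r * x * r⁻¹ = z * x)
    (hcard : Nat.card (Q ⧸ Subgroup.center Q) = 2 ^ (2 * w)) : 2 ^ w ≤ Module.finrank (ZMod p) W := by
  classical
  have hne' : ∀ x : Q, z * x ≠ x := fun x h => hz1 (mul_eq_right.1 h)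
  have hneg : ((-1 : ZMod p)) ≠ 1 := by
    haveI : Fact (2 < p) := ⟨lt_of_le_of_ne hp.out.two_le (Ne.symm hp2)⟩
    exact ZMod.neg_one_ne_one
  let χ : Q → Q →* ZMod p := fun x =>
    { toFun := fun r => if r * x * r⁻¹ = x then 1 else -1
      map_one' := by simp
      map_mul' := fun r s => by
        have e : r * s * x * (r * s)⁻¹ = r * (s * x * s⁻¹) * r⁻¹ := by group
        have ez : r * (z * x) * r⁻¹ = z * (r * x * r⁻¹) := by rw [← mul_assoc r, hzc]; group
        have hzz' : z * (z * x) = x := by rw [← mul_assoc, hzz, one_mul]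
        rw [e]
        rcases hor x s with hs | hs <;> rcases hor x r with hr | hr <;> rw [hs] <;>
          simp only [hr, ez, hzz', hne', if_true, if_false, mul_one, one_mul, neg_mul_neg] }
  let rep : Q ⧸ Subgroup.center Q → Q := fun c => c.out
  have hχ : Function.Injective fun c => χ (rep c) := by
    intro c d h
    rw [← Quotient.out_eq c, ← Quotient.out_eq d]
    refine QuotientGroup.eq.2 (Subgroup.mem_center_iff.2 fun r => ?_)
    have hr : χ (rep c) r = χ (rep d) r := DFunLike.congr_fun h r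
    have hχv : ∀ x, χ x r = if r * x * r⁻¹ = x then 1 else -1 := fun _ => rfl
    rw [hχv, hχv] at hr
    have : r * ((rep c)⁻¹ * rep d) * r⁻¹ = (rep c)⁻¹ * rep d := by
      rw [show r * ((rep c)⁻¹ * rep d) * r⁻¹ = (r * rep c * r⁻¹)⁻¹ * (r * rep d * r⁻¹) by group]
      rcases hor (rep c) r with hc | hc <;> rcases hor (rep d) r with hd | hd
      · rw [hc, hd]
      · simp [hc, hd, hne', hneg.symm] at hr
      · simp [hc, hd, hne', hneg] at hr
      · rw [hc, hd]; group
    calc r * ((rep c)⁻¹ * rep d) = r * ((rep c)⁻¹ * rep d) * r⁻¹ * r := by group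
      _ = _ := by rw [this]
  have hli := linearIndependent_of_eigen ρ (fun c => χ (rep c)) hχ (fun c => ρ (rep c)) (fun c r => by
    show ρ r * ρ (rep c) * ρ r⁻¹ = _
    rw [← map_mul ρ, ← map_mul ρ]
    show _ = (if r * rep c * r⁻¹ = rep c then (1 : ZMod p) else -1) • _
    rcases hor (rep c) r with h | h
    · rw [if_pos h, h, one_smul]
    · rw [h, if_neg (hne' _), map_mul, hρz, neg_one_mul, neg_smul, one_smul]) (fun c h => by
    have : ρ (rep c) * ρ (rep c)⁻¹ = 1 := by rw [← map_mul ρ, mul_inv_cancel, map_one ρ]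
    rw [h, zero_mul] at this
    exact zero_ne_one this)
  letI : Fintype (Q ⧸ Subgroup.center Q) := Fintype.ofFinite _
  have hle := hli.fintype_card_le_finrank
  rw [← Nat.card_eq_fintype_card, hcard, Module.finrank_linearMap, ← pow_two, mul_comm 2 w, pow_mul] at hle
  have hn : 2 ^ w ≤ Module.finrank (ZMod p) W :=
    (Nat.pow_le_pow_iff_left two_ne_zero).1 hle
  exact hn

/-- The same for an action by additive maps. -/
theorem two_pow_le_finrank_of_act {p w : ℕ} [hp : Fact p.Prime] (hp2 : p ≠ 2) {Q W : Type*} [Group Q] [Finite Q]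
    [AddCommGroup W] [Module (ZMod p) W] [Finite W] [Nontrivial W] (f : Q → W →+ W) (h1 : ∀ v, f 1 v = v)
    (hm : ∀ a b v, f (a * b) v = f a (f b v)) (z : Q) (hf : ∀ v, f z v = -v)
    (hzz : z * z = 1) (hzc : ∀ r, r * z = z * r) (hz1 : z ≠ 1)
    (hor : ∀ x r : Q, r * x * r⁻¹ = x ∨ r * x * r⁻¹ = z * x)
    (hcard : Nat.card (Q ⧸ Subgroup.center Q) = 2 ^ (2 * w)) : p ^ (2 ^ w) ∣ Nat.card W := by
  have h := two_pow_le_finrank hp2
    { toFun := fun q => (f q).toZModLinearMap p
      map_one' := LinearMap.ext h1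
      map_mul' := fun a b => LinearMap.ext (hm a b) }
    z hzz hzc (LinearMap.ext hf) hz1 hor hcard
  rw [Module.natCard_eq_pow_finrank (K := ZMod p) (V := W), Nat.card_zmod]
  exact pow_dvd_pow p h

/-- An elementary abelian `p`-group on which a group with centre of order two and quotient of order `2^(2w)` acts,
the central involution by inversion, has order divisible by `p^(2^w)`. -/
theorem pow_dvd_of_action {p w : ℕ} [hp : Fact p.Prime] (hp2 : p ≠ 2) {Q V : Type*} [Group Q] [Finite Q] [CommGroup V]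
    [Finite V] [Nontrivial V] (hexp : ∀ v : V, v ^ p = 1) (φ : Q →* MulAut V) (z : Q) (hzz : z * z = 1)
    (hzc : ∀ r, r * z = z * r) (hz : ∀ v, φ z v = v⁻¹) (hz1 : z ≠ 1)
    (hor : ∀ x r : Q, r * x * r⁻¹ = x ∨ r * x * r⁻¹ = z * x)
    (hcard : Nat.card (Q ⧸ Subgroup.center Q) = 2 ^ (2 * w)) : p ^ (2 ^ w) ∣ Nat.card V := by
  classical
  letI : Module (ZMod p) (Additive V) := AddCommGroup.zmodModule fun x => by
    show Additive.ofMul (Additive.toMul x ^ p) = 0
    rw [hexp]
    rfl
  let f : Q → Additive V →+ Additive V := fun q => MonoidHom.toAdditive (φ q).toMonoidHom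
  have h := two_pow_le_finrank_of_act (p := p) (w := w) hp2 f
    (fun v => congrArg Additive.ofMul (show φ 1 (Additive.toMul v) = Additive.toMul v by rw [map_one]; rfl))
    (fun a b v => congrArg Additive.ofMul
      (show φ (a * b) (Additive.toMul v) = φ a (φ b (Additive.toMul v)) by rw [map_mul]; rfl))
    z (fun v => congrArg Additive.ofMul (hz (Additive.toMul v))) hzz hzc hz1 hor hcard
  rwa [show Nat.card (Additive V) = Nat.card V from Nat.card_congr Additive.toMul] at h

variable {A : Type*} [Group A] [Finite A] {Q : Subgroup A}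

theorem eq_bot_of_extraspecial {w : ℕ} (hx : Cfsg.IsExtraspecial 2 Q) (hQ : Nat.card Q = 2 ^ (2 * w + 1))
    (hC : Subgroup.centralizer (Q : Set A) = (Subgroup.center Q).map Q.subtype)
    (hN : Subgroup.centralizer (((Subgroup.center Q).map Q.subtype : Subgroup A) : Set A) ≤
      Subgroup.normalizer (Q : Set A))
    (hbound : ∀ p, p.Prime → p ≠ 2 → ¬ p ^ (2 ^ w) ∣ Nat.card A) (K : Subgroup A) (hodd : Odd (Nat.card K))
    (hK : Q ≤ Subgroup.normalizer (K : Set A)) : K = ⊥ := by
  classical
  obtain ⟨z, hz2, hzQ, hzZ, hZz⟩ := IsExtraspecial.exists_center_gen hx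
  have hz1 : z ≠ 1 := fun h => by rw [h, orderOf_one] at hz2; omega
  have hzz : z * z = 1 := by rw [← pow_two, ← hz2]; exact pow_orderOf_eq_one z
  have hzc : ∀ q ∈ Q, z * q = q * z := ((mem_centerImage_iff Q z).1 hzZ).2
  have conjK : ∀ q ∈ Q, ∀ k ∈ K, q * k * q⁻¹ ∈ K := fun q hq k hk => (Subgroup.mem_normalizer_iff.1 (hK hq) k).1 hk
  -- nothing in `K` commutes with `z`
  have hfree : ∀ k ∈ K, z * k = k * z → k = 1 := by
    intro k hk hkz
    have hodd' : Odd (Nat.card (K ⊓ Subgroup.centralizer ({z} : Set A) : Subgroup A)) :=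
      hodd.of_dvd_nat (Subgroup.card_dvd_of_le inf_le_left)
    have h := eq_bot_of_le_centralizer hx hC hN hodd' (fun q hq => by
      rw [Subgroup.mem_normalizer_iff]
      intro y
      simp only [Subgroup.mem_inf, Subgroup.mem_centralizer_singleton_iff]
      rw [← (Subgroup.mem_normalizer_iff.1 (hK hq) y)]
      refine and_congr_right fun _ => ?_
      have e : ∀ y, q * y * q⁻¹ * z = z * (q * y * q⁻¹) ↔ y * z = z * y := fun y => by
        have a : q * y * q⁻¹ * z = q * (y * z) * q⁻¹ := by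
          calc q * y * q⁻¹ * z = q * y * (q⁻¹ * z) := by group
            _ = q * y * (z * q⁻¹) := by rw [hzc _ (Q.inv_mem hq)]
            _ = _ := by group
        have b : z * (q * y * q⁻¹) = q * (z * y) * q⁻¹ := by
          calc z * (q * y * q⁻¹) = z * q * y * q⁻¹ := by group
            _ = q * z * y * q⁻¹ := by rw [hzc _ hq]
            _ = _ := by group
        rw [a, b, mul_left_inj, mul_right_inj]
      exact (e y).symm) (by
      rw [hZz, Subgroup.zpowers_eq_closure, Subgroup.centralizer_closure]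
      exact inf_le_right)
    rw [← Subgroup.mem_bot, ← h]
    exact ⟨hk, Subgroup.mem_centralizer_singleton_iff.2 hkz.symm⟩
  -- hence `z` inverts `K`
  have hinv : ∀ k ∈ K, z * k * z⁻¹ = k⁻¹ := by
    let f : K → K := fun k => ⟨(k : A)⁻¹ * (z * k * z⁻¹), K.mul_mem (K.inv_mem k.2) (conjK z hzQ k k.2)⟩
    have hf : Function.Injective f := by
      intro a b h
      have h' : (a : A)⁻¹ * (z * a * z⁻¹) = (b : A)⁻¹ * (z * b * z⁻¹) := congrArg Subtype.val h
      have e : z * ((b : A) * (a : A)⁻¹) = (b : A) * (a : A)⁻¹ * z := by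
        have h2 : (b : A) * (a : A)⁻¹ = z * b * z⁻¹ * (z * a * z⁻¹)⁻¹ := by
          rw [show z * (b : A) * z⁻¹ = b * ((b : A)⁻¹ * (z * b * z⁻¹)) by group, ← h']
          group
        conv_rhs => rw [h2]
        group
      exact Subtype.ext ((mul_inv_eq_one.1 (hfree _ (K.mul_mem b.2 (K.inv_mem a.2)) e)).symm)
    intro k hk
    obtain ⟨a, ha⟩ := Finite.surjective_of_injective hf ⟨k, hk⟩
    have ha' : (a : A)⁻¹ * (z * a * z⁻¹) = k := congrArg Subtype.val ha
    have hzi : z⁻¹ = z := inv_eq_of_mul_eq_one_right hzz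
    rw [← ha', hzi]
    calc z * ((a : A)⁻¹ * (z * a * z)) * z = z * (a : A)⁻¹ * z * a * (z * z) := by group
      _ = (z⁻¹ * (a : A)⁻¹ * z⁻¹) * (a : A) := by rw [hzz, hzi, mul_one]
      _ = ((a : A)⁻¹ * (z * a * z))⁻¹ := by group
  have hab : ∀ a ∈ K, ∀ b ∈ K, a * b = b * a := by
    intro a ha b hb
    have h := hinv _ (K.mul_mem ha hb)
    rw [show z * (a * b) * z⁻¹ = (z * a * z⁻¹) * (z * b * z⁻¹) by group, hinv a ha, hinv b hb, ← mul_inv_rev,
      inv_inj] at h
    exact h.symm
  by_contra hne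
  obtain ⟨p, hp, hpd⟩ := Nat.exists_prime_and_dvd (mt Subgroup.card_eq_one.1 hne)
  haveI : Fact p.Prime := ⟨hp⟩
  have hp2 : p ≠ 2 := fun h => by
    subst h
    exact (Nat.not_even_iff_odd.2 hodd) (even_iff_two_dvd.2 hpd)
  let V : Subgroup A :=
    { carrier := {v | v ∈ K ∧ v ^ p = 1}
      one_mem' := ⟨K.one_mem, one_pow p⟩
      mul_mem' := fun {a b} ha hb => ⟨K.mul_mem ha.1 hb.1, by
        rw [Commute.mul_pow (hab a ha.1 b hb.1) p, ha.2, hb.2, one_mul]⟩
      inv_mem' := fun {a} ha => ⟨K.inv_mem ha.1, by rw [inv_pow, ha.2, inv_one]⟩ }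
  letI : CommGroup V := { (inferInstance : Group V) with mul_comm := fun a b => Subtype.ext (hab _ a.2.1 _ b.2.1) }
  have hconj : ∀ q : Q, ∀ v ∈ V, (q : A) * v * (q : A)⁻¹ ∈ V := fun q v hv =>
    ⟨conjK q q.2 v hv.1, by rw [conj_pow, hv.2, mul_one, mul_inv_cancel]⟩
  let φ : Q →* MulAut V :=
    { toFun := fun q =>
        { toFun := fun v => ⟨(q : A) * v * (q : A)⁻¹, hconj q v v.2⟩
          invFun := fun v => ⟨((q⁻¹ : Q) : A) * v * ((q⁻¹ : Q) : A)⁻¹, hconj q⁻¹ v v.2⟩
          left_inv := fun v => Subtype.ext (by simp only [Subgroup.coe_inv]; group)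
          right_inv := fun v => Subtype.ext (by simp only [Subgroup.coe_inv]; group)
          map_mul' := fun a b => Subtype.ext (by simp only [Subgroup.coe_mul]; group) }
      map_one' := MulEquiv.ext fun v => Subtype.ext (by simp)
      map_mul' := fun a b => MulEquiv.ext fun v => Subtype.ext (by
        show ((a * b : Q) : A) * (v : A) * ((a * b : Q) : A)⁻¹ = (a : A) * ((b : A) * (v : A) * (b : A)⁻¹) * (a : A)⁻¹
        rw [Subgroup.coe_mul]
        group) }
  haveI : Nontrivial V := by
    obtain ⟨a, ha⟩ := exists_prime_orderOf_dvd_card' p hpd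
    have hav : ((a : A)) ∈ V := ⟨a.2, by rw [← SubgroupClass.coe_pow, ← ha, pow_orderOf_eq_one]; rfl⟩
    refine ⟨⟨(⟨(a : A), hav⟩ : V), 1, fun h => ?_⟩⟩
    have h1 : a = 1 := Subtype.ext (congrArg (fun x : V => (x : A)) h)
    rw [h1, orderOf_one] at ha
    exact hp.ne_one ha.symm
  have hcard : Nat.card (Q ⧸ Subgroup.center Q) = 2 ^ (2 * w) := by
    have h := Subgroup.card_eq_card_quotient_mul_card_subgroup (Subgroup.center Q)
    rw [hx.2, hQ, pow_succ] at h
    omega
  refine hbound p hp hp2 ((pow_dvd_of_action hp2 (fun v => Subtype.ext v.2.2) φ ⟨z, hzQ⟩ (Subtype.ext hzz)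
    (fun r => Subtype.ext (hzc r r.2).symm) (fun v => Subtype.ext (hinv _ v.2.1))
    (fun h => hz1 (congrArg Subtype.val h)) (fun x r => ?_) hcard).trans (Subgroup.card_subgroup_dvd_card V))
  rcases IsExtraspecial.conj_eq_or hx hzZ hz1 x.2 r.2 with h | h
  exacts [Or.inl (Subtype.ext h), Or.inr (Subtype.ext h)]

end CfsgLib.Fischer.M22Pair
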